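import Cfsg.Agent.H6.PG

set_option autoImplicit false
set_option maxRecDepth 100000
set_option Elab.async false

namespace Cfsg.H6.HNR.G

def R : List (List ℕ) := [[3,3,3,3,3,3], [1,1,3,1,1,4], [2,4,1,3,2,4,1,3,2,4,1,3], [2,3,3,1,3,3,3,2,3,3,1,3,3,3,2,3,3,1,3,3,3], [1,3,1,3,1,3,1,3,1,3,1,3,1,3,1,3], [1,3,1,3,3,3,1,3,1,3,3,3,1,3,1,3,3,3,1,3,1,3,3,3], [5,5], [5,1,5,1], [5,3,2,4,4,2,4,2,4,5,3,1,3,1,3,3,1,4,2,2], [5,4,2,4,2,4,4,4,5,3,3,3,1,3,1,3,1,4,2,4,2,4,4,4,5,3,3,3,1,3,1,3,1,4,2,4,2,4,4,4,5,3,3,3,1,3,1,3,1], [7,2,3,1], [1,1]]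

def X : List (List ℕ) := [[1], [3], [5], [6]]

/-- The presented group. -/
abbrev Grp : Type := PG 434321399574757888 R

def ev : ℕ → Grp := pgEv 434321399574757888 R

theorem hev : Good ev 434321399574757888 := pg_good _ _

theorem hR : Rels ev R := pg_rels _ _

theorem hX : gen ev X = ⊤ := pg_gen (m := 8) (by decide +kernel)

theorem lift {G : Type*} [Group G] {ev' : ℕ → G} (h : Good ev' 434321399574757888) (h' : Rels ev' R) :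
    ∃ φ : Grp →* G, ∀ l, φ (ev l) = ev' l := pg_lift h h'

end Cfsg.H6.HNR.G
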