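import Cfsg.Agent.H6.HNR.G.Pres
import Cfsg.Agent.H6.HNR.G.Chk0

set_option autoImplicit false
set_option maxRecDepth 100000
set_option Elab.async false

namespace Cfsg.H6.HNR.G

theorem ptOK : PtOK img 5775 LS EQS := ptOK_of_chk fun p h1 h2 => by
  rw [← ptU_eq]
  exact (range_join (range_join (allR_range p0 (by norm_num : 0 + 1216 = 1216)) (allR_range p1 (by norm_num : 1216 + 1216 = 2432))) (range_join (allR_range p2 (by norm_num : 2432 + 1216 = 3648)) (range_join (allR_range p3 (by norm_num : 3648 + 1216 = 4864)) (allR_range p4 (by norm_num : 4864 + 911 = 5775))))) p h1 h2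

theorem hrep : repOK 8 434321399574757888 LS EQS D HNR.G.R = true := by decide +kernel

theorem rep : Good (evR img 5775 8) 434321399574757888 ∧ Rels (evR img 5775 8) HNR.G.R ∧
    IsAct (MonoidHom.id _) (evR img 5775 8) img 5775 8 := rep_sound ptOK hrep


end Cfsg.H6.HNR.G
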